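import Cfsg.Agent.Blocks.OrderP.LatticeChar

/-!
# Weights of lattices at a self-centralising subgroup of order `p`

Let `u` have order `p` and `N(⟨u⟩) = ⟨u⟩⟨s⟩`.  A weight of a lattice is an eigenvalue mod `p` of `s`
on the fixed points of `u` modulo norms, witnessed by a fixed point and an invariant linear form.
A positive trace at the powers of `u` gives a weight (`exists_weight`).  Lattices separated by a
central element have different weights (`ne_weight`) and, if it is symmetric, weights which are not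
inverse to each other (`mul_weight_ne_one`).
-/

set_option autoImplicit false

namespace CfsgLib.Blocks.OrderP.Weight

open Cfsg CfsgLib Finset

universe u v w

variable {p : ℕ} [hp : Fact p.Prime] {G : Type u} [Group G]

section Abstract

variable {L : Type v} [AddCommGroup L] [Module ℤ_[p] L]
  {L' : Type w} [AddCommGroup L'] [Module ℤ_[p] L']

/-- `r` is a weight of the lattice. -/
def IsWeight (ρ : G →* Module.End ℤ_[p] L) (u₀ s : G) (r : ZMod p) : Prop :=
  ∃ (a : L) (φ : L →ₗ[ℤ_[p]] ℤ_[p]), ρ u₀ a = a ∧ (∀ x, φ (ρ u₀ x) = φ x) ∧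
    ∀ k : ℕ, PadicInt.toZMod (φ (ρ (s ^ k) a)) = r ^ k

theorem IsWeight.pow_eq_one {ρ : G →* Module.End ℤ_[p] L} {u₀ s : G} {r : ZMod p} {e : ℕ}
    (h : IsWeight ρ u₀ s r) (hs : s ^ e = 1) : r ^ e = 1 := by
  obtain ⟨a, φ, -, -, hk⟩ := h
  rw [← hk e, hs, ← pow_zero s, hk 0, pow_zero]

variable [Fintype G]

/-- A lattice with positive trace at the powers of `u₀` has a weight. -/
theorem exists_weight [Module.Free ℤ_[p] L] [Module.Finite ℤ_[p] L]
    (ρ : G →* Module.End ℤ_[p] L) {u₀ s : G} (hu : orderOf u₀ = p)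
    (hs : s ∈ Subgroup.normalizer (Subgroup.zpowers u₀ : Set G)) (hsp : s ^ (p - 1) = 1)
    {τ : ℤ} (hτ : 0 < τ)
    (htr : ∀ i ∈ Finset.Ico 1 p, LinearMap.trace ℤ_[p] L (ρ u₀ ^ i) = (τ : ℤ_[p])) :
    ∃ r : ZMod p, IsWeight ρ u₀ s r := by
  classical
  have hUp : ρ u₀ ^ p = 1 := pow_ord hu
  obtain ⟨z, hz, hzI⟩ : ∃ z ∈ (pairA (ρ := ρ) hu).K, z ∉ (pairA (ρ := ρ) hu).I := by
    by_contra hcon
    push Not at hcon
    have ha : (LinearMap.range (opT (ρ u₀))).toAddSubgroup.relIndex
        (LinearMap.ker (opD (ρ u₀))).toAddSubgroup = p ^ 0 := by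
      rw [pow_zero, AddSubgroup.relIndex_eq_one]; exact hcon
    obtain ⟨c, -, h1⟩ := index_identities hUp
    have hp1 : p - 1 ≠ 0 := by have := hp.out.two_le; omega
    obtain ⟨b, -, hb⟩ := (Nat.dvd_prime_pow hp.out).1
      (((Dvd.intro_left _ rfl).trans (dvd_pow_self (c * (LinearMap.range
        (opD (ρ u₀))).toAddSubgroup.relIndex (LinearMap.ker (opT (ρ u₀))).toAddSubgroup)
          hp1)).trans (dvd_of_eq h1))
    have := trace_eq_of_index hUp htr ha hb
    omega
  obtain ⟨a, haK, haI, r, hr⟩ := exists_eigen_line (ρ s) (pairA (ρ := ρ) hu).K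
    (pairA (ρ := ρ) hu).I ((pairA (ρ := ρ) hu).norm_K s hs)
    (fun z _ => by rw [← map_pow, hsp, map_one, Module.End.one_apply, sub_self]
                   exact Submodule.zero_mem _)
    (pairA (ρ := ρ) hu).smul_mem ⟨z, hz, hzI⟩
  have hfix : ρ u₀ a = a := mem_ker_opD.1 haK
  set T := opT (ρ u₀) with hT
  have hTa : T a = (p : ℤ_[p]) • a := opT_apply_fixed hfix
  obtain ⟨ψ, hψ⟩ := exists_form (p := p) (Y := LinearMap.range T) (y := ⟨T a, ⟨a, rfl⟩⟩) (by
    rintro ⟨_, y, rfl⟩ h
    have h0 : T a = (p : ℤ_[p]) • T y := by simpa using congrArg Subtype.val h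
    exact haI ⟨y, (smul_right_injective L (Nat.cast_ne_zero.2 hp.out.ne_zero)
      (hTa ▸ h0 : (p : ℤ_[p]) • a = (p : ℤ_[p]) • T y)).symm⟩)
  refine ⟨PadicInt.toZMod r, a, ψ.comp T.rangeRestrict, hfix, fun x => ?_, fun k => ?_⟩
  · show ψ (T.rangeRestrict (ρ u₀ x)) = ψ (T.rangeRestrict x)
    congr 1
    refine Subtype.ext ?_
    show T (ρ u₀ x) = T x
    have h := LinearMap.congr_fun (opT_mul_opD (pow_ord (ρ := ρ) hu)) x
    simp only [Module.End.mul_apply, opD, LinearMap.sub_apply, Module.End.one_apply, map_sub,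
      LinearMap.zero_apply, sub_eq_zero] at h
    exact h
  · have hk : ρ (s ^ k) a - r ^ k • a ∈ (pairA (ρ := ρ) hu).I := by
      induction k with
      | zero => simp
      | succ j ih =>
        have h := (pairA (ρ := ρ) hu).I.add_mem ((pairA (ρ := ρ) hu).norm_I s hs _ ih)
          ((pairA (ρ := ρ) hu).I.smul_mem (r ^ j) hr)
        convert h using 1
        rw [pow_succ' s, map_mul, Module.End.mul_apply, map_sub, map_smul, pow_succ, mul_smul]
        module
    obtain ⟨y, hy⟩ : ρ (s ^ k) a - r ^ k • a ∈ LinearMap.range T := hk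
    have e : ψ (T.rangeRestrict (ρ (s ^ k) a)) = r ^ k + (p : ℤ_[p]) * ψ (T.rangeRestrict y) := by
      have h1 : T.rangeRestrict (ρ (s ^ k) a) =
          r ^ k • T.rangeRestrict a + (p : ℤ_[p]) • T.rangeRestrict y := by
        refine Subtype.ext ?_
        show T (ρ (s ^ k) a) = r ^ k • T a + (p : ℤ_[p]) • T y
        have h2 : T (T y) = (p : ℤ_[p]) • T y :=
          opT_apply_fixed (mem_ker_opD.1 (range_opT_le hUp ⟨y, rfl⟩))
        rw [← h2, hy, map_sub, map_smul, add_sub_cancel]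
      rw [h1, map_add, map_smul, map_smul, smul_eq_mul, smul_eq_mul,
        show T.rangeRestrict a = (⟨T a, a, rfl⟩ : LinearMap.range T) from rfl, hψ, mul_one]
    rw [LinearMap.comp_apply, e, map_add, map_mul, map_pow, map_natCast, ZMod.natCast_self,
      zero_mul, add_zero]

end Abstract

variable [Fintype G]

/-- The local data: `N(⟨u₀⟩)` is the product of `⟨u₀⟩` and the powers `s ^ k`, `k < e`. -/
structure Local (p : ℕ) (e : ℕ) (u₀ s : G) : Prop where
  hu : orderOf u₀ = p
  hs : s ^ e = 1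
  hediv : e ∣ p - 1
  hsN : s ∈ Subgroup.normalizer (Subgroup.zpowers u₀ : Set G)
  hgen : ∀ n ∈ Subgroup.normalizer (Subgroup.zpowers u₀ : Set G),
    ∃ k < e, ∃ x ∈ Subgroup.zpowers u₀, n = s ^ k * x
  hinj : ∀ k < e, ∀ l < e, (s ^ k)⁻¹ * s ^ l ∈ Subgroup.zpowers u₀ → k = l

variable {e : ℕ} {u₀ s : G}

theorem Local.e_pos (D : Local p e u₀ s) : 0 < e :=
  Nat.pos_of_dvd_of_pos D.hediv (by have := hp.out.two_le; omega)

theorem Local.cast_ne_zero (D : Local p e u₀ s) : (e : ZMod p) ≠ 0 := by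
  rw [Ne, ZMod.natCast_eq_zero_iff]
  intro h
  have h1 := Nat.le_of_dvd D.e_pos h
  have h2 := Nat.le_of_dvd (by have := hp.out.two_le; omega) D.hediv
  have := hp.out.two_le
  omega

theorem Local.hsp (D : Local p e u₀ s) : s ^ (p - 1) = 1 := by
  obtain ⟨t, ht⟩ := D.hediv
  rw [ht, pow_mul, D.hs, one_pow]

/-- An invariant sum over a set acted on by a `p`-group sees only the fixed points. -/
theorem sum_eq_sum_fixed {H : Type*} [Group H] (hH : IsPGroup p H) {X : Type*} [Fintype X]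
    [DecidableEq X] [MulAction H X] (f : X → ZMod p) (hf : ∀ (h : H) x, f (h • x) = f x)
    (Fx : Finset X) (hFx : ∀ x, x ∈ Fx ↔ x ∈ MulAction.fixedPoints H X) :
    ∑ x, f x = ∑ x ∈ Fx, f x := by
  classical
  rw [← Finset.sum_fiberwise Finset.univ f f, ← Finset.sum_fiberwise Fx f f]
  refine Finset.sum_congr rfl fun c _ => ?_
  rw [Finset.sum_congr rfl (fun x hx => (Finset.mem_filter.1 hx).2),
    Finset.sum_congr rfl (fun x hx => (Finset.mem_filter.1 hx).2), Finset.sum_const,
    Finset.sum_const, nsmul_eq_mul, nsmul_eq_mul]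
  congr 1
  rw [ZMod.natCast_eq_natCast_iff]
  let S : SubMulAction H X := ⟨{x | f x = c}, fun h x hx => (hf h x).trans hx⟩
  haveI : Finite S := inferInstanceAs (Finite {x | f x = c})
  have h1 := hH.card_modEq_card_fixedPoints S
  rw [show Nat.card S = (Finset.univ.filter fun x => f x = c).card by
      rw [← Fintype.card_subtype, ← Nat.card_eq_fintype_card]; rfl] at h1
  rw [show Nat.card (MulAction.fixedPoints H S) = (Fx.filter fun x => f x = c).card by
      rw [← Nat.card_eq_finsetCard]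
      refine Nat.card_congr
        { toFun := fun x => ⟨x.1.1, Finset.mem_filter.2 ⟨(hFx _).2 fun h =>
            congrArg Subtype.val (x.2 h), x.1.2⟩⟩
          invFun := fun x => ⟨⟨x.1, (Finset.mem_filter.1 x.2).2⟩, fun h =>
            Subtype.ext ((hFx _).1 (Finset.mem_filter.1 x.2).1 h)⟩
          left_inv := fun _ => rfl
          right_inv := fun _ => rfl }] at h1
  exact h1

/-- A bi-invariant function of sum zero has sum zero mod `p` over the representatives `s ^ k`. -/
theorem sum_reps_eq_zero (D : Local p e u₀ s) {F : G → ℤ_[p]}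
    (hr : ∀ g, F (g * u₀) = F g) (hl : ∀ g, F (u₀ * g) = F g) (hsum : ∑ g, F g = 0) :
    ∑ k ∈ Finset.range e, PadicInt.toZMod (F (s ^ k)) = 0 := by
  classical
  set H := Subgroup.zpowers u₀ with hH
  haveI : Fintype (G ⧸ H) := Fintype.ofFinite _
  haveI : Fintype H := Fintype.ofFinite _
  have hpowr : ∀ g, ∀ x ∈ H, F (g * x) = F g := by
    intro g x hx
    obtain ⟨i, -, rfl⟩ := exists_pow_eq D.hu hx
    clear hx
    induction i generalizing g with
    | zero => simp
    | succ i ih => rw [pow_succ, ← mul_assoc, hr, ih]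
  have hpowl : ∀ g, ∀ x ∈ H, F (x * g) = F g := by
    intro g x hx
    obtain ⟨i, -, rfl⟩ := exists_pow_eq D.hu hx
    clear hx
    induction i generalizing g with
    | zero => simp
    | succ i ih => rw [pow_succ, mul_assoc, ih, hl]
  let Fq : G ⧸ H → ℤ_[p] := Quotient.lift F fun a b hab => by
    have h : a⁻¹ * b ∈ H := QuotientGroup.leftRel_apply.1 hab
    rw [← hpowr a _ h, mul_inv_cancel_left]
  have hFq : ∀ g : G, Fq (QuotientGroup.mk g) = F g := fun g => rfl
  have hzero : ∑ c, Fq c = 0 := by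
    have hout : ∀ g : G, F g = Fq (Subgroup.groupEquivQuotientProdSubgroup (s := H) g).1 :=
      fun g => rfl
    rw [Fintype.sum_equiv (Subgroup.groupEquivQuotientProdSubgroup (s := H)) F
      (fun c => Fq c.1) hout, Fintype.sum_prod_type] at hsum
    simp only [Finset.sum_const, Finset.card_univ, ← Finset.smul_sum] at hsum
    rw [← Nat.card_eq_fintype_card, Nat.card_zpowers, D.hu] at hsum
    exact (smul_eq_zero.1 hsum).resolve_left hp.out.ne_zero
  have hfix : ∀ g : G, (QuotientGroup.mk g : G ⧸ H) ∈ MulAction.fixedPoints H (G ⧸ H) ↔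
      g ∈ Subgroup.normalizer (H : Set G) := fun g => by
    rw [Sylow.mem_fixedPoints_mul_left_cosets_iff_mem_normalizer]
  have h1 := sum_eq_sum_fixed (IsPGroup.of_card (n := 1) (by
    rw [pow_one, Nat.card_zpowers, D.hu]) : IsPGroup p H) (fun c => PadicInt.toZMod (Fq c))
    (fun h c => by
      obtain ⟨g, rfl⟩ := QuotientGroup.mk_surjective c
      show PadicInt.toZMod (Fq (QuotientGroup.mk ((h : G) * g))) = _
      rw [hFq, hFq, hpowl g _ h.2])
    ((Finset.range e).image fun k => (QuotientGroup.mk (s ^ k) : G ⧸ H)) (fun c => by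
      obtain ⟨g, rfl⟩ := QuotientGroup.mk_surjective c
      rw [hfix, Finset.mem_image]
      constructor
      · rintro ⟨k, -, hk⟩
        have h := QuotientGroup.eq.1 hk
        rw [show g = s ^ k * ((s ^ k)⁻¹ * g) by group]
        exact mul_mem (pow_mem D.hsN k) (Subgroup.le_normalizer h)
      · intro hg
        obtain ⟨k, hk, x, hx, rfl⟩ := D.hgen g hg
        refine ⟨k, Finset.mem_range.2 hk, QuotientGroup.eq.2 ?_⟩
        rwa [inv_mul_cancel_left])
  rw [← map_sum, hzero, map_zero, Finset.sum_image fun k hk l hl h =>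
    D.hinj k (Finset.mem_range.1 hk) l (Finset.mem_range.1 hl) (QuotientGroup.eq.1 h)] at h1
  simpa only [hFq] using h1.symm

section Pair

variable {L : Type v} [AddCommGroup L] [Module ℤ_[p] L] {L' : Type w} [AddCommGroup L']
  [Module ℤ_[p] L'] {ρ : G →* Module.End ℤ_[p] L} {ρ' : G →* Module.End ℤ_[p] L'}
  {r r' : ZMod p} (z : G → ℤ_[p])

/-- A weight pair whose contributions are all `1` gives `e = 0` mod `p`. -/
theorem false_of_pair (D : Local p e u₀ s) {F : G → ℤ_[p]} (hr : ∀ g, F (g * u₀) = F g)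
    (hl : ∀ g, F (u₀ * g) = F g) (hsum : (Nat.card G : ℤ_[p]) * ∑ g, F g = 0)
    (hone : ∀ k < e, PadicInt.toZMod (F (s ^ k)) = 1) : False := by
  have h0 : ∑ g, F g = 0 :=
    (mul_eq_zero.1 hsum).resolve_left (Nat.cast_ne_zero.2 Nat.card_pos.ne')
  have h := sum_reps_eq_zero D hr hl h0
  rw [Finset.sum_congr rfl fun k hk => hone k (Finset.mem_range.1 hk), Finset.sum_const,
    Finset.card_range, nsmul_one] at h
  exact D.cast_ne_zero h

omit [Fintype G] in
theorem form_inv_invariant {φ : L →ₗ[ℤ_[p]] ℤ_[p]} (hφ : ∀ x, φ (ρ u₀ x) = φ x) (x : L) :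
    φ (ρ u₀⁻¹ x) = φ x := by
  rw [← hφ (ρ u₀⁻¹ x), ← Module.End.mul_apply, ← map_mul, mul_inv_cancel, map_one,
    Module.End.one_apply]

/-- Separated lattices have different weights. -/
theorem ne_weight (D : Local p e u₀ s)
    (hz : ∑ g, z g • ρ g = (Nat.card G : ℤ_[p]) • 1) (hz' : ∑ g, z g • ρ' g = 0)
    (h : IsWeight ρ u₀ s r) (h' : IsWeight ρ' u₀ s r') : r ≠ r' := by
  rintro rfl
  have hre := h.pow_eq_one D.hs
  obtain ⟨a, φ, ha, hφ, hk⟩ := h
  obtain ⟨b, φ', hb, hφ', hk'⟩ := h'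
  refine false_of_pair D (F := fun g => φ (ρ g⁻¹ a) * φ' (ρ' g b)) (fun g => ?_) (fun g => ?_)
    ?_ fun k _ => ?_
  · simp only [mul_inv_rev, map_mul, Module.End.mul_apply, hb, form_inv_invariant hφ]
  · simp only [mul_inv_rev, map_mul, Module.End.mul_apply, hφ']
    rw [show ρ u₀⁻¹ a = a by
      conv_lhs => rw [← ha, ← Module.End.mul_apply, ← map_mul, inv_mul_cancel, map_one,
        Module.End.one_apply]]
  · have h1 : ∀ x : L, ∑ h : G, z h • ρ h x = (Nat.card G : ℤ_[p]) • x := fun x => by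
      simpa [LinearMap.sum_apply] using LinearMap.congr_fun hz x
    have h2 : ∀ x : L', ∑ h : G, z h • ρ' h x = 0 := fun x => by
      simpa [LinearMap.sum_apply] using LinearMap.congr_fun hz' x
    calc (Nat.card G : ℤ_[p]) * ∑ g, φ (ρ g⁻¹ a) * φ' (ρ' g b)
        = ∑ g, φ (ρ g⁻¹ (∑ h, z h • ρ h a)) * φ' (ρ' g b) := by
          rw [h1, Finset.mul_sum]
          exact Finset.sum_congr rfl fun g _ => by rw [map_smul, map_smul, smul_eq_mul, mul_assoc]
      _ = ∑ h, ∑ g, z h * (φ (ρ g⁻¹ (ρ h a)) * φ' (ρ' g b)) := by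
          rw [Finset.sum_comm]
          refine Finset.sum_congr rfl fun g _ => ?_
          rw [map_sum, map_sum, Finset.sum_mul]
          exact Finset.sum_congr rfl fun h _ => by rw [map_smul, map_smul, smul_eq_mul, mul_assoc]
      _ = ∑ h, ∑ g, z h * (φ (ρ g⁻¹ a) * φ' (ρ' h (ρ' g b))) := by
          refine Finset.sum_congr rfl fun h _ => ?_
          rw [← Equiv.sum_comp (Equiv.mulLeft h)]
          refine Finset.sum_congr rfl fun g _ => ?_
          simp only [Equiv.coe_mulLeft, ← Module.End.mul_apply, ← map_mul, mul_inv_rev,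
            inv_mul_cancel_right]
      _ = ∑ g, φ (ρ g⁻¹ a) * φ' (∑ h, z h • ρ' h (ρ' g b)) := by
          rw [Finset.sum_comm]
          refine Finset.sum_congr rfl fun g _ => ?_
          rw [map_sum, Finset.mul_sum]
          exact Finset.sum_congr rfl fun h _ => by rw [map_smul, smul_eq_mul]; ring
      _ = 0 := Finset.sum_eq_zero fun g _ => by rw [h2, map_zero, mul_zero]
  · rw [map_mul, hk', ← inv_pow, show s⁻¹ = s ^ (e - 1) from
      inv_eq_of_mul_eq_one_right (by rw [← pow_succ', Nat.sub_add_cancel D.e_pos, D.hs]),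
      ← pow_mul, hk, ← pow_add, ← Nat.succ_mul, Nat.succ_eq_add_one, Nat.sub_add_cancel D.e_pos,
      pow_mul, hre, one_pow]

/-- Lattices separated by a symmetric element do not have inverse weights. -/
theorem mul_weight_ne_one (D : Local p e u₀ s)
    (hz : ∑ g, z g • ρ g = (Nat.card G : ℤ_[p]) • 1) (hz' : ∑ g, z g • ρ' g⁻¹ = 0)
    (h : IsWeight ρ u₀ s r) (h' : IsWeight ρ' u₀ s r') : r * r' ≠ 1 := by
  intro hrr
  obtain ⟨a, φ, ha, hφ, hk⟩ := h
  obtain ⟨b, φ', hb, hφ', hk'⟩ := h'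
  refine false_of_pair D (F := fun g => φ (ρ g a) * φ' (ρ' g b)) (fun g => ?_) (fun g => ?_)
    ?_ fun k _ => ?_
  · simp only [map_mul, Module.End.mul_apply, ha, hb]
  · simp only [map_mul, Module.End.mul_apply, hφ, hφ']
  · have h1 : ∀ x : L, ∑ h : G, z h • ρ h x = (Nat.card G : ℤ_[p]) • x := fun x => by
      simpa [LinearMap.sum_apply] using LinearMap.congr_fun hz x
    have h2 : ∀ x : L', ∑ h : G, z h • ρ' h⁻¹ x = 0 := fun x => by
      simpa [LinearMap.sum_apply] using LinearMap.congr_fun hz' x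
    calc (Nat.card G : ℤ_[p]) * ∑ g, φ (ρ g a) * φ' (ρ' g b)
        = ∑ g, φ (ρ g (∑ h, z h • ρ h a)) * φ' (ρ' g b) := by
          rw [h1, Finset.mul_sum]
          exact Finset.sum_congr rfl fun g _ => by rw [map_smul, map_smul, smul_eq_mul, mul_assoc]
      _ = ∑ h, ∑ g, z h * (φ (ρ g (ρ h a)) * φ' (ρ' g b)) := by
          rw [Finset.sum_comm]
          refine Finset.sum_congr rfl fun g _ => ?_
          rw [map_sum, map_sum, Finset.sum_mul]
          exact Finset.sum_congr rfl fun h _ => by rw [map_smul, map_smul, smul_eq_mul, mul_assoc]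
      _ = ∑ h, ∑ g, z h * (φ (ρ g a) * φ' (ρ' g (ρ' h⁻¹ b))) := by
          refine Finset.sum_congr rfl fun h _ => ?_
          rw [← Equiv.sum_comp (Equiv.mulRight h⁻¹)]
          refine Finset.sum_congr rfl fun g _ => ?_
          simp only [Equiv.coe_mulRight, ← Module.End.mul_apply, ← map_mul, inv_mul_cancel_right]
      _ = ∑ g, φ (ρ g a) * φ' (ρ' g (∑ h, z h • ρ' h⁻¹ b)) := by
          rw [Finset.sum_comm]
          refine Finset.sum_congr rfl fun g _ => ?_
          rw [map_sum, map_sum, Finset.mul_sum]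
          exact Finset.sum_congr rfl fun h _ => by rw [map_smul, map_smul, smul_eq_mul]; ring
      _ = 0 := Finset.sum_eq_zero fun g _ => by rw [h2, map_zero, map_zero, mul_zero]
  · rw [map_mul, hk, hk', ← mul_pow, hrr, one_pow]

end Pair

section Carries

/-- The regular lattice of a central element has the weight `r`. -/
def Carries (z : G → ℤ_[p]) (u₀ s : G) (r : ZMod p) : Prop :=
  ∃ (L : Submodule ℤ_[p] (G → ℤ_[p])) (ρ : G →* Module.End ℤ_[p] L),
    (∑ g, z g • ρ g = (Nat.card G : ℤ_[p]) • 1) ∧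
    (∀ z' : G → ℤ_[p], (∀ x, ∑ g, z' g * z (g⁻¹ * x) = 0) → ∑ g, z' g • ρ g = 0) ∧
    IsWeight ρ u₀ s r

/-- A positive value at the powers of `u₀` gives a weight. -/
theorem exists_carries (D : Local p e u₀ s) (z : G → ℤ_[p]) (hzc : ∀ g h, z (h * g * h⁻¹) = z g)
    (hzz : ∀ x, ∑ g, z g * z (g⁻¹ * x) = (Nat.card G : ℤ_[p]) * z x) {τ : ℤ} (hτ : 0 < τ)
    (hval : ∀ i ∈ Finset.Ico 1 p, z (u₀ ^ i)⁻¹ = (τ : ℤ_[p])) :
    ∃ r : ZMod p, Carries z u₀ s r := by
  classical
  set N : ℤ_[p] := (Nat.card G : ℤ_[p])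
  have hN : N ≠ 0 := Nat.cast_ne_zero.2 Nat.card_pos.ne'
  set Z : Module.End ℤ_[p] (G → ℤ_[p]) := ∑ g, z g • regRep p g with hZ
  have hZapply : ∀ f x, Z f x = ∑ g, z g * f (g⁻¹ * x) := fun f x => by
    simp only [hZ, LinearMap.sum_apply, LinearMap.smul_apply, Finset.sum_apply, Pi.smul_apply,
      regRep_apply, smul_eq_mul]
  have hZZ : Z * Z = N • Z := by
    refine LinearMap.ext fun f => funext fun x => ?_
    rw [Module.End.mul_apply, LinearMap.smul_apply, Pi.smul_apply, smul_eq_mul, hZapply, hZapply]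
    simp only [hZapply, Finset.mul_sum]
    calc ∑ g, ∑ k, z g * (z k * f (k⁻¹ * (g⁻¹ * x)))
        = ∑ g, ∑ k, z g * (z (g⁻¹ * k) * f (k⁻¹ * x)) := by
          refine Finset.sum_congr rfl fun g _ => ?_
          rw [← Equiv.sum_comp (Equiv.mulLeft g⁻¹)]
          exact Finset.sum_congr rfl fun k _ => by simp [mul_assoc]
      _ = ∑ k, (∑ g, z g * z (g⁻¹ * k)) * f (k⁻¹ * x) := by
          rw [Finset.sum_comm]
          exact Finset.sum_congr rfl fun k _ => by
            rw [Finset.sum_mul]; exact Finset.sum_congr rfl fun g _ => by ring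
      _ = ∑ k, N * (z k * f (k⁻¹ * x)) := Finset.sum_congr rfl fun k _ => by rw [hzz]; ring
  have hZcomm : ∀ h : G, regRep p h * Z = Z * regRep p h := by
    intro h
    rw [hZ, Finset.mul_sum, Finset.sum_mul]
    refine Fintype.sum_equiv (MulAut.conj h).toEquiv _ _ fun g => ?_
    show _ = (z (h * g * h⁻¹) • regRep p (h * g * h⁻¹)) * regRep p h
    rw [hzc, mul_smul_comm, smul_mul_assoc, ← map_mul, ← map_mul, inv_mul_cancel_right]
  set L := LinearMap.ker (Z - N • 1)
  have hLmem : ∀ f, f ∈ L ↔ Z f = N • f := fun f => by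
    simp [L, sub_eq_zero]
  have hLinv : ∀ g : G, ∀ x ∈ L, regRep p g x ∈ L := fun g x hx => by
    rw [hLmem] at hx ⊢
    rw [← Module.End.mul_apply, ← hZcomm g, Module.End.mul_apply, hx, map_smul]
  let ρ : G →* Module.End ℤ_[p] L :=
    { toFun := fun g => (regRep p g).restrict (hLinv g)
      map_one' := by ext x; simp
      map_mul' := fun g h => by ext x; simp }
  let Z' : (G → ℤ_[p]) →ₗ[ℤ_[p]] L := Z.codRestrict L fun f => (hLmem _).2 (by
    rw [← Module.End.mul_apply, hZZ, LinearMap.smul_apply])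
  have htrace : ∀ g : G, LinearMap.trace ℤ_[p] L (ρ g) = z g⁻¹ := by
    intro g
    refine mul_left_cancel₀ hN ?_
    have e1 : N • ρ g = Z' ∘ₗ (regRep p g ∘ₗ L.subtype) := by
      refine LinearMap.ext fun x => Subtype.ext ?_
      show N • regRep p g x = Z (regRep p g x)
      rw [(hLmem _).1 (hLinv g x x.2)]
    have e2 : LinearMap.trace ℤ_[p] L (N • ρ g) =
        LinearMap.trace ℤ_[p] (G → ℤ_[p]) (regRep p g * Z) := by
      rw [e1, LinearMap.trace_comp_comm', LinearMap.comp_assoc]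
      rfl
    rw [map_smul, smul_eq_mul] at e2
    rw [e2, hZ, Finset.mul_sum, map_sum]
    have e3 : ∀ h : G, LinearMap.trace ℤ_[p] (G → ℤ_[p]) (regRep p g * z h • regRep p h) =
        if h = g⁻¹ then N * z g⁻¹ else 0 := by
      intro h
      rw [mul_smul_comm, ← map_mul, map_smul, smul_eq_mul,
        LinearMap.trace_eq_matrix_trace ℤ_[p] (Pi.basisFun ℤ_[p] G)]
      have hd : ∀ x : G, Matrix.diag (LinearMap.toMatrix (Pi.basisFun ℤ_[p] G)
          (Pi.basisFun ℤ_[p] G) (regRep p (g * h))) x = if g * h = 1 then 1 else 0 := by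
        intro x
        simp [regRep_apply, Pi.single_apply]
        refine if_congr ?_ rfl rfl
        rw [← mul_assoc, mul_eq_right, ← mul_inv_rev, inv_eq_one]
      rw [Matrix.trace, Finset.sum_congr rfl fun x _ => hd x, Finset.sum_const, Finset.card_univ]
      by_cases hh : h = g⁻¹
      · subst hh
        rw [if_pos (mul_inv_cancel g), if_pos rfl, nsmul_one, ← Nat.card_eq_fintype_card, mul_comm]
      · rw [if_neg (fun h1 => hh (eq_inv_of_mul_eq_one_right h1)), if_neg hh, smul_zero, mul_zero]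
    rw [Finset.sum_congr rfl fun h _ => e3 h, Finset.sum_ite_eq', if_pos (Finset.mem_univ _)]
  obtain ⟨r, hr⟩ := exists_weight ρ D.hu D.hsN D.hsp hτ fun i hi => by
    rw [← map_pow, htrace, hval i hi]
  refine ⟨r, L, ρ, ?_, fun z' hz' => ?_, hr⟩
  · refine LinearMap.ext fun x => Subtype.ext ?_
    simp only [LinearMap.sum_apply, LinearMap.smul_apply, Submodule.coe_sum, Submodule.coe_smul,
      Module.End.one_apply]
    have := (hLmem _).1 x.2
    rw [hZ, LinearMap.sum_apply] at this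
    exact this
  · refine LinearMap.ext fun x => Subtype.ext (smul_right_injective (G → ℤ_[p]) hN ?_)
    simp only [LinearMap.sum_apply, LinearMap.smul_apply, Submodule.coe_sum, Submodule.coe_smul,
      LinearMap.zero_apply, Submodule.coe_zero, smul_zero, Finset.smul_sum]
    show ∑ g, N • z' g • regRep p g (x : G → ℤ_[p]) = 0
    rw [Finset.sum_congr rfl fun g _ => by rw [smul_comm N, ← map_smul, ← (hLmem _).1 x.2]]
    funext y
    simp only [Finset.sum_apply, Pi.smul_apply, regRep_apply, hZapply, smul_eq_mul, Finset.mul_sum,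
      Pi.zero_apply]
    calc ∑ g, ∑ k, z' g * (z k * (x : G → ℤ_[p]) (k⁻¹ * (g⁻¹ * y)))
        = ∑ g, ∑ k, z' g * (z (g⁻¹ * k) * (x : G → ℤ_[p]) (k⁻¹ * y)) := by
          refine Finset.sum_congr rfl fun g _ => ?_
          rw [← Equiv.sum_comp (Equiv.mulLeft g⁻¹)]
          exact Finset.sum_congr rfl fun k _ => by simp [mul_assoc]
      _ = ∑ k, (∑ g, z' g * z (g⁻¹ * k)) * (x : G → ℤ_[p]) (k⁻¹ * y) := by
          rw [Finset.sum_comm]
          exact Finset.sum_congr rfl fun k _ => by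
            rw [Finset.sum_mul]; exact Finset.sum_congr rfl fun g _ => by ring
      _ = 0 := Finset.sum_eq_zero fun k _ => by rw [hz', zero_mul]

variable {z z' : G → ℤ_[p]} {r r' : ZMod p}

theorem Carries.pow_eq_one (D : Local p e u₀ s) (h : Carries z u₀ s r) : r ^ e = 1 := by
  obtain ⟨L, ρ, -, -, hw⟩ := h
  exact hw.pow_eq_one D.hs

theorem Carries.ne (D : Local p e u₀ s) (h : Carries z u₀ s r) (h' : Carries z' u₀ s r')
    (horth : ∀ x, ∑ g, z g * z' (g⁻¹ * x) = 0) : r ≠ r' := by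
  obtain ⟨L, ρ, hz, -, hw⟩ := h
  obtain ⟨L', ρ', -, hk, hw'⟩ := h'
  exact ne_weight z D hz (hk z horth) hw hw'

theorem Carries.mul_ne_one (D : Local p e u₀ s) (hsym : ∀ g, z g⁻¹ = z g)
    (h : Carries z u₀ s r) (h' : Carries z' u₀ s r')
    (horth : ∀ x, ∑ g, z g * z' (g⁻¹ * x) = 0) : r * r' ≠ 1 := by
  obtain ⟨L, ρ, hz, -, hw⟩ := h
  obtain ⟨L', ρ', -, hk, hw'⟩ := h'
  refine mul_weight_ne_one z D hz ?_ hw hw'
  rw [← hk z horth, ← Equiv.sum_comp (Equiv.inv G) fun g => z g • ρ' g]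
  exact Finset.sum_congr rfl fun g _ => by simp [hsym]

/-- The trivial element has the weight `1`. -/
theorem Carries.eq_one (h : Carries (p := p) (fun _ : G => 1) u₀ s r) : r = 1 := by
  obtain ⟨L, ρ, hz, -, a, φ, -, -, hk⟩ := h
  have hfix : ρ s a = a := by
    refine smul_right_injective L (Nat.cast_ne_zero.2 Nat.card_pos.ne' :
      (Nat.card G : ℤ_[p]) ≠ 0) ?_
    have h1 : ∀ x : L, ∑ g : G, ρ g x = (Nat.card G : ℤ_[p]) • x := fun x => by
      simpa [LinearMap.sum_apply] using LinearMap.congr_fun hz x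
    show (Nat.card G : ℤ_[p]) • ρ s a = (Nat.card G : ℤ_[p]) • a
    rw [← map_smul, ← h1, map_sum, ← Equiv.sum_comp (Equiv.mulLeft s) fun g => ρ g a]
    exact Finset.sum_congr rfl fun g _ => by simp [map_mul]
  have h0 := hk 0
  have h1 := hk 1
  rw [pow_one, hfix] at h1
  simp only [pow_zero, map_one, Module.End.one_apply] at h0
  rw [pow_one] at h1
  exact h1.symm.trans h0

end Carries

end CfsgLib.Blocks.OrderP.Weight
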