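import Cfsg.Agent.Blocks.OrderP.Weight
import Cfsg.Agent.Blocks.OrderP.Principal
import Mathlib.NumberTheory.Padics.Hensel

/-!
# Weights of families of irreducible characters

A family `S` whose idempotent is realised over `ℤ_[p]` by `z` has a weight as soon as
`∑ η 1 * η u` is a positive integer.
-/

set_option autoImplicit false

namespace CfsgLib.Blocks.OrderP.Weight

open Cfsg CfsgLib Finset Polynomial
open scoped ComplexConjugate

universe u

variable {p : ℕ} [hp : Fact p.Prime] {G : Type u} [Group G] [Fintype G]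

/-- `|G|` times the coefficient of the idempotent of `S`. -/
noncomputable def famVal (S : Finset (IrrCharacter G)) (g : G) : ℂ :=
  ∑ η ∈ S, (η : G → ℂ) 1 * (η : G → ℂ) g⁻¹

/-- `z` realises the idempotent of `S`. -/
def Realises (j : ℤ_[p] →+* ℂ) (S : Finset (IrrCharacter G)) (z : G → ℤ_[p]) : Prop :=
  ∀ g, j (z g) = famVal S g

omit hp in
theorem famVal_eq (S : Finset (IrrCharacter G)) (g : G) :
    famVal S g = (Nat.card G : ℂ) * blockCoeff (S : Set (IrrCharacter G)) g := by
  classical
  rw [blockCoeff_eq_sum, ← mul_assoc, mul_inv_cancel₀ (Nat.cast_ne_zero.2 Nat.card_pos.ne'),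
    one_mul, ← Finset.sum_filter]
  exact Finset.sum_congr (by ext; simp) fun η _ => rfl

/-- The idempotents multiply by intersection. -/
theorem sum_famVal_mul [DecidableEq (IrrCharacter G)] (S T : Finset (IrrCharacter G)) (x : G) :
    ∑ g : G, famVal S g * famVal T (g⁻¹ * x) = (Nat.card G : ℂ) * famVal (S ∩ T) x := by
  classical
  have h : setIdem (S : Set (IrrCharacter G)) * setIdem (T : Set (IrrCharacter G)) =
      setIdem ((S ∩ T : Finset (IrrCharacter G)) : Set (IrrCharacter G)) := by
    refine eq_of_forall_omega ((isCentralElt_setIdem _).mul (isCentralElt_setIdem _))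
      (isCentralElt_setIdem _) fun χ => ?_
    rw [omega_mul χ.2 (isCentralElt_setIdem _), omega_setIdem, omega_setIdem, omega_setIdem]
    simp only [Finset.mem_coe, Finset.mem_inter]
    by_cases h1 : χ ∈ S <;> by_cases h2 : χ ∈ T <;> simp [h1, h2]
  have hx := congrArg (fun a : GA G => a.coeff x) h
  simp only [coeff_mul_eq_sum, setIdem, coeff_ofFun] at hx
  simp only [famVal_eq]
  rw [← hx, Finset.mul_sum, Finset.mul_sum]
  exact Finset.sum_congr rfl fun g _ => by ring

omit hp in
theorem famVal_classFun (S : Finset (IrrCharacter G)) (g h : G) :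
    famVal S (h * g * h⁻¹) = famVal S g := by
  simp only [famVal]
  refine Finset.sum_congr rfl fun η _ => ?_
  rw [show (h * g * h⁻¹)⁻¹ = h * g⁻¹ * h⁻¹ by group, Chars.isClassFunction_coe η]

variable {j : ℤ_[p] →+* ℂ} {S T : Finset (IrrCharacter G)} {z z' : G → ℤ_[p]}

/-- Disjoint families have orthogonal elements. -/
theorem Realises.orth (hj : Function.Injective j) (hS : Realises j S z) (hT : Realises j T z')
    (hd : Disjoint S T) (x : G) : ∑ g, z g * z' (g⁻¹ * x) = 0 := by
  classical
  refine hj ?_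
  rw [map_sum, map_zero, Finset.sum_congr rfl fun g _ => by rw [map_mul, hS, hT],
    sum_famVal_mul, Finset.disjoint_iff_inter_eq_empty.1 hd]
  simp [famVal]

theorem Realises.sym (hj : Function.Injective j) (hS : Realises j S z)
    (h : ∀ g, famVal S g⁻¹ = famVal S g) (g : G) : z g⁻¹ = z g :=
  hj (by rw [hS, hS, h])

/-- A family with positive sum of values at the powers of `u₀` has a weight. -/
theorem Realises.exists_carries {e : ℕ} {u₀ s : G} (D : Local p e u₀ s) (hj : Function.Injective j)
    (hS : Realises j S z) {τ : ℤ} (hτ : 0 < τ)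
    (hval : ∀ i ∈ Finset.Ico 1 p, ∑ η ∈ S, (η : G → ℂ) 1 * (η : G → ℂ) (u₀ ^ i) = τ) :
    ∃ r : ZMod p, Carries z u₀ s r := by
  classical
  refine Weight.exists_carries D z (fun g h => hj ?_) (fun x => hj ?_) hτ fun i hi => hj ?_
  · rw [hS, hS, famVal_classFun]
  · rw [map_sum, map_mul, map_natCast, hS, Finset.sum_congr rfl fun g _ => by rw [map_mul, hS, hS],
      sum_famVal_mul, Finset.inter_self]
  · rw [hS, map_intCast, ← hval i hi, famVal]
    simp only [inv_inv]

/-- A rationally stable family is realised, symmetrically. -/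
theorem exists_realises (j : ℤ_[p] →+* ℂ) (hj : Function.Injective j) (S : Finset (IrrCharacter G))
    (hS : ∀ (k : ℕ) (hk : k.Coprime (Nat.card G)), ∀ χ ∈ S, Orth.powIrr hk χ ∈ S) :
    ∃ z : G → ℤ_[p], Realises j S z ∧ ∀ g, z g⁻¹ = z g := by
  classical
  obtain ⟨z, hz⟩ := exists_int_idem S hS
  have hR : Realises j S fun g => (z g : ℤ_[p]) := fun g => by rw [map_intCast, hz, famVal_eq]
  refine ⟨_, hR, hR.sym hj fun g => ?_⟩
  have hreal : conj (famVal S g) = famVal S g := by rw [famVal_eq, ← hz, map_intCast]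
  rw [← hreal, famVal, famVal, map_sum]
  refine Finset.sum_congr rfl fun η _ => ?_
  rw [inv_inv, map_mul, Chars.conj_map_one (Chars.isCharacter_coe η),
    ← Chars.map_inv_eq_conj (Chars.isCharacter_coe η), inv_inv]

/-- The roots of unity of order dividing `p - 1` lie in `ℤ_[p]`. -/
theorem exists_padic_root {e : ℕ} (he : e ∣ p - 1) (j : ℤ_[p] →+* ℂ) (hj : Function.Injective j)
    {a : ℂ} (ha : a ^ e = 1) : ∃ v : ℤ_[p], j v = a := by
  classical
  have hepos : 0 < e := Nat.pos_of_dvd_of_pos he (by have := hp.out.two_le; omega)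
  have hlift : ∀ c ∈ rootSet p e, ∃ v : ℤ_[p], v ^ e = 1 ∧ PadicInt.toZMod v = c := by
    intro c hc
    obtain ⟨a₀, ha₀⟩ : ∃ a₀ : ℤ_[p], PadicInt.toZMod a₀ = c :=
      ⟨c.val, by rw [map_natCast, ZMod.natCast_zmod_val]⟩
    have hcne : c ≠ 0 := fun h => zero_notMem_rootSet hepos (h ▸ hc)
    set F : ℤ_[p][X] := X ^ e - 1 with hF
    have hd : ‖(Polynomial.derivative F).aeval a₀‖ = 1 := by
      rw [hF, derivative_sub, derivative_X_pow, derivative_one, sub_zero, map_mul, map_pow, aeval_C,
        aeval_X, ← PadicInt.isUnit_iff]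
      have hu : ∀ v : ℤ_[p], PadicInt.toZMod v ≠ 0 → IsUnit v := fun v hv => by
        by_contra h
        refine hv ?_
        rw [← RingHom.mem_ker, PadicInt.ker_toZMod]
        exact (IsLocalRing.mem_maximalIdeal _).2 h
      refine IsUnit.mul (hu _ ?_) ((hu _ (by rwa [ha₀])).pow _)
      simp only [Algebra.algebraMap_self, RingHom.id_apply, map_natCast]
      rw [Ne, ZMod.natCast_eq_zero_iff]
      intro h
      have h1 := Nat.le_of_dvd hepos h
      have h2 := Nat.le_of_dvd (by have := hp.out.two_le; omega) he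
      have := hp.out.two_le
      omega
    have hnorm : ‖F.aeval a₀‖ < ‖(Polynomial.derivative F).aeval a₀‖ ^ 2 := by
      rw [hd, one_pow, PadicInt.norm_lt_one_iff_dvd, ← Ideal.mem_span_singleton,
        ← PadicInt.maximalIdeal_eq_span_p, ← PadicInt.ker_toZMod, RingHom.mem_ker, hF, map_sub,
        map_pow, aeval_X, map_one, map_sub, map_pow, ha₀, mem_rootSet.1 hc, map_one, sub_self]
    obtain ⟨v, hv, hva, -⟩ := hensels_lemma hnorm
    refine ⟨v, ?_, ?_⟩
    · rw [hF, map_sub, map_pow, aeval_X, map_one, sub_eq_zero] at hv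
      exact hv
    · rw [hd, PadicInt.norm_lt_one_iff_dvd, ← Ideal.mem_span_singleton,
        ← PadicInt.maximalIdeal_eq_span_p, ← PadicInt.ker_toZMod, RingHom.mem_ker, map_sub,
        sub_eq_zero, ha₀] at hva
      exact hva
  choose v hv hvc using hlift
  have hcard : ((rootSet p e).attach.image fun c => j (v c.1 c.2)).card = e := by
    rw [Finset.card_image_of_injective _ fun c d h => Subtype.ext (by
      rw [← hvc c.1 c.2, hj h, hvc d.1 d.2]), Finset.card_attach, card_rootSet he]
  have hζ := Complex.isPrimitiveRoot_exp e hepos.ne'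
  have hsub : ((rootSet p e).attach.image fun c => j (v c.1 c.2)) ⊆
      nthRootsFinset e (1 : ℂ) := by
    intro x hx
    obtain ⟨c, -, rfl⟩ := Finset.mem_image.1 hx
    rw [mem_nthRootsFinset hepos, ← map_pow, hv, map_one]
  have heq := Finset.eq_of_subset_of_card_le hsub (by rw [hζ.card_nthRootsFinset, hcard])
  have hmem : a ∈ nthRootsFinset e (1 : ℂ) := (mem_nthRootsFinset hepos _).2 ha
  rw [← heq] at hmem
  obtain ⟨c, -, hc⟩ := Finset.mem_image.1 hmem
  exact ⟨_, hc⟩

end CfsgLib.Blocks.OrderP.Weight
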